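import Cfsg.Agent.H804.D4Ab.Row
import Cfsg.Agent.H197.Ab.X3

/-!
# `³D₄(q)`: `|A|³ < |G|` for the abelian subgroups `A` (helper804, task 820)
-/

set_option autoImplicit false

namespace Cfsg.Agent.H804.D4Ab

open Cfsg

/-- **`³D₄(q)`** -/
theorem ab3_3D4 {G : Type*} [Group G] [Finite G] [IsSimpleGroup G] (h : Cfsg.Lie.Iso3D4 G) :
    Cfsg.Agent.H498.Ab.Ab3 G := ab3_3D4_of H197.Ab.X3.x3 h

end Cfsg.Agent.H804.D4Ab
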